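import Mathlib
import Cfsg.Agent.Orth.Count
import Cfsg.Agent.Classical.SpSum
import Cfsg.Agent.Comp2.Zsig

/-! Element orders distinguish `B_n(q)` from `C_n(q)` for odd `q` and `n ≥ 3`. -/

set_option autoImplicit false
set_option backward.isDefEq.respectTransparency false

namespace Cfsg.Agent.Classical.BC

open Module QuadraticMap Cfsg.Agent.Orth

section Orth

variable {F V : Type*} [Field F] [Finite F] [AddCommGroup V] [Module F V] [FiniteDimensional F V]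
  {Q : QuadraticForm F V}

theorem free_count {r : ℕ} (hr : r.Prime) {x : OG Q} (hx : x ^ r = 1) (P : V → Prop)
    (hP : ∀ v, P v → P (x.1 v)) (h0 : P 0) (hf : ∀ v, P v → x.1 v = v → v = 0) :
    Nat.card {v // P v} ≡ 1 [MOD r] := by
  classical
  have := Fact.mk hr
  have := Module.finite_of_finite F (M := V)
  have := Fintype.ofFinite {v // P v}
  let f : Function.End {v // P v} := fun v => ⟨x.1 v.1, hP _ v.2⟩
  have h1 (k : ℕ) (v) : ((f ^ k) v).1 = (x ^ k).1 v.1 := by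
    induction k with
    | zero => rfl
    | succ k ih => rw [pow_succ', pow_succ', OG.mul_apply, ← ih]; rfl
  have h2 := Equiv.Perm.card_fixedPoints_modEq (f := f) (p := r) (n := 1)
    (funext fun v => Subtype.ext (by rw [h1, pow_one, hx]; rfl))
  have h3 : Fintype.card f.fixedPoints = 1 :=
    Fintype.card_eq_one_iff.2 ⟨⟨⟨0, h0⟩, Subtype.ext (map_zero _)⟩, fun v =>
      Subtype.ext (Subtype.ext (hf _ v.1.2 (congrArg Subtype.val v.2)))⟩
  rwa [h3, ← Nat.card_eq_fintype_card] at h2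

theorem free_sub {r : ℕ} (hr : r.Prime) {x : OG Q} (hx : x ^ r = 1) (W : Submodule F V)
    (hP : ∀ v ∈ W, x.1 v ∈ W) (hf : W ⊓ fix x = ⊥) :
    Nat.card F ^ finrank F W ≡ 1 [MOD r] := by
  rw [← Module.natCard_eq_pow_finrank]
  exact free_count hr hx (· ∈ W) hP W.zero_mem fun v a b =>
    (Submodule.eq_bot_iff _).1 hf v ⟨a, mem_fix.2 b⟩

omit [Finite F] in
theorem even_rk (hQ : ND Q) (h2 : (2 : F) ≠ 0) {g : OG Q} {k : ℕ} (hk : Odd k) (h : g ^ k = 1) :
    Even (rk g) := by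
  have := congrArg (hQ.dick (good_of_two_ne_zero h2)) h
  rw [map_pow, map_one, Int.units_pow_eq_pow_mod_two, Nat.odd_iff.1 hk, pow_one] at this
  exact (hQ.dick_eq_one_iff _ _).1 this

omit [Finite F] in
theorem eq_one_of_rk {g : OG Q} (h : rk g = 0) : g = 1 := OG.ext fun v =>
  sub_eq_zero.1 ((Submodule.eq_bot_iff _).1 (Submodule.finrank_eq_zero.1 h) _ (sub_mem_mov g v))

omit [Finite F] [FiniteDimensional F V] in
theorem map_mov {g h : OG Q} (e : Commute g h) (v : V) (hv : v ∈ mov h) : g.1 v ∈ mov h := by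
  obtain ⟨w, rfl⟩ := mem_mov.1 hv
  exact mem_mov.2 ⟨g.1 w, by rw [map_sub, ← OG.mul_apply, ← e.eq]; rfl⟩

omit [Finite F] in
theorem mov_inf_fix (hQ : ND Q) {s : OG Q} {k : ℕ} (hk : (k : F) ≠ 0) (hs : s ^ k = 1) :
    mov s ⊓ fix s = ⊥ := by
  refine (Submodule.eq_bot_iff _).2 fun v ⟨h1, h2⟩ => ?_
  obtain ⟨w, rfl⟩ := mem_mov.1 h1
  have h3 (i : ℕ) : (s ^ i).1 w = w + (i : F) • (s.1 w - w) := by
    induction i with
    | zero => simp
    | succ i ih =>
      rw [pow_succ', OG.mul_apply, ih, map_add, map_smul, mem_fix.1 h2]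
      push_cast; module
  simpa [hs, hk] using h3 k

omit [Finite F] in
theorem decomp (hQ : ND Q) {s : OG Q} {k : ℕ} (hk : (k : F) ≠ 0) (hs : s ^ k = 1) :
    ∃ (W W' : Submodule F V) (e : ((Q.restrict W).prod (Q.restrict W')).IsometryEquiv Q),
      ND (Q.restrict W) ∧ ND (Q.restrict W') ∧ (∃ a, sumHom e (a, 1) = s ∧ fix a = ⊥) ∧
      ∀ g, Commute g s → ∃ a b, sumHom e (a, b) = g := by
  have h1 : mov s ⊓ perp Q (mov s) = ⊥ := by rw [hQ.perp_mov, mov_inf_fix hQ hk hs]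
  have h2 (g) (hg : Commute g s) : ∃ a b, sumHom (splitIso (hQ.isCompl_perp h1)) (a, b) = g := by
    obtain ⟨⟨a, b⟩, h⟩ := (hQ.range_sumHom_splitIso h1).ge (mem_stab_of_le (map_mov hg))
    exact ⟨a, b, h⟩
  refine ⟨_, _, _, (nd_restrict_iff _).2 h1, hQ.nd_perp h1, ?_, h2⟩
  obtain ⟨a, b, h⟩ := h2 s (Commute.refl s)
  have h3 (x y) : s.1 (x.1 + y.1) = (a.1 x).1 + (b.1 y).1 := by
    have := sumHom_apply (splitIso (hQ.isCompl_perp h1)) (a, b) x y
    rwa [h] at this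
  obtain rfl : b = 1 := OG.ext fun y => Subtype.ext (by
    simpa [mem_fix.1 ((hQ.perp_mov s).le y.2), -SetLike.coe_eq_coe] using (h3 0 y).symm)
  refine ⟨a, h, (Submodule.eq_bot_iff _).2 fun x hx => Subtype.ext ?_⟩
  refine (Submodule.eq_bot_iff _).1 (mov_inf_fix hQ hk hs) _ ⟨x.2, mem_fix.2 ?_⟩
  simpa [mem_fix.1 hx] using h3 x 0

theorem rk_lt {p : ℕ} (hp : p.Prime) (hpF : (p : F) = 0) {u : OG Q} (hu : u ^ p = 1) :
    rk u = 0 ∨ rk u < finrank F V := by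
  have h1 := rk_add_finrank_fix u
  by_contra h
  have h2 := free_sub hp hu ⊤ (fun _ _ => trivial)
    (by rw [top_inf_eq, ← Submodule.finrank_eq_zero]; omega)
  have := Fintype.ofFinite F
  have := Fact.mk hp
  have h3 : p ∣ Nat.card F := by
    rw [Nat.card_eq_fintype_card]
    exact (prime_dvd_char_iff_dvd_card p).1 ((ringChar.spec F p).1 hpF |> fun h =>
      (((Nat.dvd_prime hp).1 h).resolve_left CharP.ringChar_ne_one).symm.dvd)
  rw [finrank_top] at h2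
  exact hp.one_lt.ne' (Nat.dvd_one.1 ((h2.dvd_iff dvd_rfl).1 (dvd_pow h3 (by omega))))

variable {p r m : ℕ} (h2 : (2 : F) ≠ 0) (hp : p.Prime) (hpF : (p : F) = 0) (hr : r.Prime)
  (hrF : (r : F) ≠ 0) (hr2 : Odd r) (H : ∀ k, Even k → Nat.card F ^ k ≡ 1 [MOD r] → 2 * m ∣ k)

include h2 hr hrF hr2 H in
theorem dvd_rk (hQ : ND Q) {x : OG Q} (hx : x ^ r = 1) : 2 * m ∣ rk x :=
  H _ (even_rk hQ h2 hr2 hx) (free_sub hr hx _ (map_mov (Commute.refl x)) (mov_inf_fix hQ hrF hx))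

theorem pow_sum {V₁ V₂ : Type*} [AddCommGroup V₁] [Module F V₁] [AddCommGroup V₂] [Module F V₂]
    {Q₁ : QuadraticForm F V₁} {Q₂ : QuadraticForm F V₂} {e : (Q₁.prod Q₂).IsometryEquiv Q}
    {a : OG Q₁} {b : OG Q₂} {k : ℕ} (h : sumHom e (a, b) ^ k = 1) : a ^ k = 1 ∧ b ^ k = 1 := by
  rw [← map_pow, map_eq_one_iff _ (sumHom_injective e)] at h
  exact Prod.ext_iff.1 h

theorem comm_sum {V₁ V₂ : Type*} [AddCommGroup V₁] [Module F V₁] [AddCommGroup V₂] [Module F V₂]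
    {Q₁ : QuadraticForm F V₁} {Q₂ : QuadraticForm F V₂} {e : (Q₁.prod Q₂).IsometryEquiv Q}
    {a c : OG Q₁} {b d : OG Q₂} (h : Commute (sumHom e (a, b)) (sumHom e (c, d))) :
    Commute a c ∧ Commute b d :=
  Prod.ext_iff.1 (h.of_map (sumHom_injective e)).eq

include h2 hp hpF hr hrF H in
theorem unip_eq_one (hQ : ND Q) {u x : OG Q} (hu : u ^ p = 1) (hx : x ^ r = 1) (e : Commute u x)
    (h1 : finrank F V ≤ rk x + 2) (h3 : rk x ≤ 2 * m) : u = 1 := by
  have hp2 : Odd p := hp.odd_of_ne_two (by rintro rfl; exact h2 (by exact_mod_cast hpF))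
  obtain ⟨W, W', ε, hW, hW', ⟨a, rfl, ha⟩, h⟩ := decomp hQ hrF hx
  obtain ⟨u₁, u₂, rfl⟩ := h u e
  have h4 := rk_add_finrank_fix a
  rw [rk_sumHom, rk_one] at h1 h3
  rw [ha, finrank_bot] at h4
  rw [finrank_sum ε] at h1
  have h5 := rk_lt hp hpF (pow_sum hu).1
  have h6 := rk_lt hp hpF (pow_sum hu).2
  have h7 := even_rk hW' h2 hp2 (pow_sum hu).2
  have h8 := H _ (even_rk hW h2 hp2 (pow_sum hu).1) (free_sub hr (pow_sum hx).1 _
    (map_mov (comm_sum e).1.symm) (by simp [ha]))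
  rw [eq_one_of_rk (g := u₂) (by obtain ⟨k, hk⟩ := h7; omega),
    eq_one_of_rk (g := u₁) (h5.elim id fun h => Nat.eq_zero_of_dvd_of_lt h8 (by omega))]
  exact map_one _

include h2 hp hpF hr hrF hr2 in
theorem main (hQ : ND Q) (hm : 1 ≤ m) (hn : finrank F V = 2 * (m + 1) + 3)
    (H : ∀ k, Even k → Nat.card F ^ k ≡ 1 [MOD r] → 2 * (m + 1) ∣ k)
    (Hp : Nat.card F ^ (m + 1) % 4 = 1 →
      ¬ (r : ℤ) ∣ (Nat.card F ^ (m + 1) - 1) * (Nat.card F ^ m + 1))
    (Hm : Nat.card F ^ (m + 1) % 4 ≠ 1 →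
      ¬ (r : ℤ) ∣ (Nat.card F ^ (m + 1) + 1) * (Nat.card F ^ m - 1))
    {z u x : OG Q} (hz : z ^ 2 = 1) (hu : u ^ p = 1) (hx : x ^ r = 1) (hz1 : z ≠ 1)
    (hx1 : x ≠ 1) (hz2 : z ∈ commutator (OG Q)) (e₁ : Commute u x) (e₂ : Commute u z)
    (e₃ : Commute x z) : u = 1 := by
  obtain ⟨W, W', ε, hW, hW', ⟨a, rfl, ha⟩, h⟩ := decomp hQ (k := 2) (by exact_mod_cast h2) hz
  obtain ⟨u₁, u₂, rfl⟩ := h u e₂
  obtain ⟨x₁, x₂, rfl⟩ := h x e₃
  obtain ⟨h3, h4⟩ := (hQ.mem_commutator_iff (good_of_two_ne_zero h2) _).1 hz2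
  have h5 := rk_add_finrank_fix a
  have h6 : rk (sumHom ε (a, 1)) ≠ 0 := mt eq_one_of_rk hz1
  have h7 : rk (sumHom ε (x₁, x₂)) ≠ 0 := mt eq_one_of_rk hx1
  rw [rk_sumHom, rk_one] at h3 h6
  rw [ha, finrank_bot] at h5
  rw [finrank_sum ε] at hn
  rw [rk_sumHom] at h7
  have h8 := rk_add_finrank_fix x₁
  have h9 := rk_add_finrank_fix x₂
  have h10 {k : ℕ} (h : 2 * (m + 1) ∣ k) (h' : k ≤ 2 * (m + 1) + 3) : k = 0 ∨ k = 2 * (m + 1) := by
    obtain ⟨_ | _ | c, rfl⟩ := h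
    · simp
    · simp
    · nlinarith
  have h11 := h10 (dvd_rk h2 hr hrF hr2 H hW (pow_sum hx).1) (by omega)
  have h12 := h10 (dvd_rk h2 hr hrF hr2 H hW' (pow_sum hx).2) (by omega)
  obtain ⟨c, hc⟩ := h3
  by_cases h13 : finrank F W ≤ rk x₁ + 2 ∧ finrank F W' ≤ rk x₂ + 2
  · rw [unip_eq_one h2 hp hpF hr hrF H hW (pow_sum hu).1 (pow_sum hx).1 (comm_sum e₁).1 h13.1
      (by omega), unip_eq_one h2 hp hpF hr hrF H hW' (pow_sum hu).2 (pow_sum hx).2
      (comm_sum e₁).2 h13.2 (by omega)]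
    exact map_one _
  exfalso
  have hd : finrank F W = 2 * (m + 1) := by omega
  have h14 : fix x₁ = ⊥ := Submodule.finrank_eq_zero.1 (by omega)
  obtain rfl : a = negOne _ := OG.ext fun v => eq_neg_of_add_eq_zero_left
    ((Submodule.eq_bot_iff _).1 ha _ (mem_fix.2 (by
      rw [map_add, ← OG.mul_apply, ← pow_two, (pow_sum hz).1, add_comm]; rfl)))
  have h15 := ((hW.negOne_mem_iff h2 (finBasis F W)).1
    ((hW.mem_commutator_iff (good_of_two_ne_zero h2) _).2 ⟨⟨c, by omega⟩,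
      (sqSpin_sumHom_left ε hQ hW (good_of_two_ne_zero h2) _).1 h4⟩)).2
  have := Fintype.ofFinite F
  have h16 : IsPlus (Q.restrict W) ↔ Nat.card F ^ (m + 1) % 4 = 1 := by
    rw [hW.isPlus_iff_disc h2 hd (finBasis F W), isSquare_mul_iff (hW.det_gram_ne_zero _)
      (by simp), isSquare_neg_one_pow_iff h2, Nat.card_eq_fintype_card]
    simp [h15]
  have h17 : (r : ℤ) ∣ nv (Q.restrict W) 0 - 1 :=
    (free_count hr (pow_sum hx).1 (fun v => Q.restrict W v = 0) (fun v hv => by rw [OG.map_Q, hv])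
      (map_zero _) fun v _ hv => (Submodule.eq_bot_iff _).1 h14 v (mem_fix.2 hv)).symm.dvd
  by_cases h18 : IsPlus (Q.restrict W)
  · obtain ⟨ι⟩ := hW.iso_plusQ h18 hd
    rw [← nv_iso ι, nv_plusQ] at h17
    exact Hp (h16.1 h18) (by convert h17 using 1; ring)
  · obtain ⟨ζ, hζ⟩ := exists_aniso (F := F)
    obtain ⟨ι⟩ := hW.iso_minusQ h18 (m := m) hd hζ
    rw [← nv_iso ι, nv_minusQ m hζ] at h17
    exact Hm (mt h16.2 h18) (by convert h17 using 1; ring)

end Orth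

theorem exists_prime {q m : ℕ} (hq : Odd q) (hq1 : 1 < q) (hm : 1 ≤ m) :
    ∃ r : ℕ, r.Prime ∧ Odd r ∧ r ∣ q ^ (2 * (m + 1)) - 1 ∧
      (∀ k, Even k → q ^ k ≡ 1 [MOD r] → 2 * (m + 1) ∣ k) ∧
      (q ^ (m + 1) % 4 = 1 → ¬ (r : ℤ) ∣ (q ^ (m + 1) - 1) * (q ^ m + 1)) ∧
      (q ^ (m + 1) % 4 ≠ 1 → ¬ (r : ℤ) ∣ (q ^ (m + 1) + 1) * (q ^ m - 1)) := by
  have key {n : ℕ} (hn : 2 < n) : ∃ r : ℕ, r.Prime ∧ Odd r ∧
      ∀ k, (r : ℤ) ∣ q ^ k - 1 ↔ n ∣ k := by
    obtain ⟨r, h1, h2, h3⟩ := Cfsg.Agent.Comp2.Zsig.zsigmondy q n hq1 (by omega)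
      (by rintro ⟨rfl, -⟩; revert hq; decide) (by omega)
    have h4 (k : ℕ) : r ∣ q ^ k - 1 ↔ (r : ℤ) ∣ q ^ k - 1 := by
      rw [← Int.natCast_dvd_natCast, Nat.cast_pred (by positivity)]; push_cast; rfl
    refine ⟨r, h1, h1.odd_of_ne_two ?_, fun k => ⟨fun h => ?_, ?_⟩⟩
    · rintro rfl
      exact h3 1 one_pos (by omega) (by obtain ⟨c, rfl⟩ := hq; simp)
    · have h5 := Nat.dvd_gcd ((h4 k).2 h) h2
      rw [Nat.pow_sub_one_gcd_pow_sub_one] at h5
      by_contra h6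
      exact h3 _ (Nat.gcd_pos_of_pos_right _ (by omega)) (lt_of_le_of_ne
        (Nat.gcd_le_right _ (by omega)) fun h => h6 (h ▸ Nat.gcd_dvd_left k n)) h5
    · rintro ⟨c, rfl⟩
      exact ((h4 n).1 h2).trans (by simpa [pow_mul] using sub_dvd_pow_sub_pow ((q : ℤ) ^ n) 1 c)
  have h4 (r k : ℕ) : r ∣ q ^ k - 1 ↔ (r : ℤ) ∣ q ^ k - 1 := by
    rw [← Int.natCast_dvd_natCast, Nat.cast_pred (by positivity)]; push_cast; rfl
  have h5 {r k : ℕ} (h : q ^ k ≡ 1 [MOD r]) : (r : ℤ) ∣ q ^ k - 1 := by simpa using h.symm.dvd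
  by_cases h : q ^ (m + 1) % 4 = 1
  · obtain ⟨r, h1, h2, h3⟩ := key (n := 2 * (m + 1)) (by omega)
    refine ⟨r, h1, h2, (h4 _ _).2 ((h3 _).2 dvd_rfl), fun k _ hk => (h3 k).1 (h5 hk), fun _ h6 => ?_,
      fun h' => (h' h).elim⟩
    rcases (Nat.prime_iff_prime_int.1 h1).dvd_or_dvd h6 with h7 | h7
    · have := Nat.le_of_dvd (by omega) ((h3 _).1 h7); omega
    · have := Nat.le_of_dvd (by omega) ((h3 (2 * m)).1 (h7.trans ⟨q ^ m - 1, by ring⟩)); omega
  · have ho : Odd (m + 1) := by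
      refine Nat.not_even_iff_odd.1 ?_
      rintro ⟨c, hc⟩
      obtain ⟨d, hd⟩ := hq.pow (n := c)
      rw [hc, pow_add, hd, show (2 * d + 1) * (2 * d + 1) = 4 * (d * d + d) + 1 by ring] at h
      omega
    obtain ⟨r, h1, h2, h3⟩ := key (n := m + 1) (by obtain ⟨c, hc⟩ := ho; omega)
    refine ⟨r, h1, h2, (h4 _ _).2 ((h3 _).2 (dvd_mul_left _ _)), fun k he hk =>
      (Nat.coprime_two_left.2 ho).mul_dvd_of_dvd_of_dvd he.two_dvd ((h3 k).1 (h5 hk)),
      fun h' => (h h').elim, fun _ h6 => ?_⟩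
    rcases (Nat.prime_iff_prime_int.1 h1).dvd_or_dvd h6 with h7 | h7
    · have h8 : (r : ℤ) ∣ (2 : ℕ) := by
        simpa [one_add_one_eq_two] using dvd_sub h7 ((h3 _).2 dvd_rfl)
      rw [(Nat.prime_dvd_prime_iff_eq h1 Nat.prime_two).1 (Int.natCast_dvd_natCast.1 h8)] at h2
      revert h2; decide
    · have := Nat.le_of_dvd (by omega) ((h3 _).1 h7); omega

section Sp

open SpWitt SpSimple SpSum

variable {F V : Type*} [Field F] [Finite F] [AddCommGroup V] [Module F V] [FiniteDimensional F V]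
  {B : LinearMap.BilinForm F V}

theorem exists_sp (hA : B.IsAlt) (hB : B.Nondegenerate) (h2 : (2 : F) ≠ 0) {p r m : ℕ}
    (hp : p.Prime) [CharP F p] (hr : r.Prime) (hr2 : Odd r) (hpr : p ≠ r)
    (hn : finrank F V = 2 * (m + 1) + 2) (hd : r ∣ Nat.card F ^ (2 * (m + 1)) - 1) :
    ∃ g : SG B ⧸ Subgroup.center (SG B), orderOf g = 2 * p * r := by
  have := Fact.mk hr
  have : Nontrivial V := Module.nontrivial_of_finrank_pos (R := F) (by omega)
  obtain ⟨u, hu⟩ := exists_ne (0 : V)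
  obtain ⟨v, hv⟩ := exists_one hB hA.isRefl hu
  have hv' : B v u = -1 := by rw [← hA.neg_eq, hv]
  have hu' : u ∈ Submodule.span F {u, v} := Submodule.subset_span (by simp)
  have hv2 : v ∈ Submodule.span F {u, v} := Submodule.subset_span (by simp)
  have hc : IsCompl (Submodule.span F {u, v}) (B.orthogonal (Submodule.span F {u, v})) := by
    refine compl_of hA hB fun w hw h => ?_
    obtain ⟨a, b, rfl⟩ := Submodule.mem_span_pair.1 hw
    have h3 := h u hu'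
    have h4 := h v hv2
    simp [hA.self_eq_zero, hv, hv'] at h3 h4
    simp [h3, h4]
  have hW : finrank F (B.orthogonal (Submodule.span F {u, v})) = 2 * (m + 1) := by
    have h3 := finrank_orth hB (Submodule.span F {u, v})
    have h4 := finrank_span_eq_card (pair_linearIndependent hA (hv ▸ one_ne_zero))
    rw [Matrix.range_cons_cons_empty, Fintype.card_fin] at h4
    omega
  have := Module.finite_of_finite F (M := V)
  have : Finite (SG (B.restrict (B.orthogonal (Submodule.span F {u, v})))) :=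
    Finite.of_injective (fun g => (g.1 : _ → _)) fun _ _ h => SG.ext (congrFun h)
  obtain ⟨x, hx⟩ := exists_prime_orderOf_dvd_card' (G := SG (B.restrict (B.orthogonal
      (Submodule.span F {u, v})))) r (by
    rw [card_SG (nondeg_orth hA hB hc) (alt_restrict hA _) hW, Finset.prod_range_succ]
    exact (hd.mul_left _).mul_left _)
  have hp2 : Odd p := hp.odd_of_ne_two (by rintro rfl; exact h2 (CharP.cast_eq_zero F 2))
  set t := tv (alt_restrict hA (Submodule.span F {u, v})) ⟨u, hu'⟩ 1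
  have ht (k : ℕ) : t ^ k = tv (alt_restrict hA _) ⟨u, hu'⟩ k := by
    induction k with
    | zero => simp [tv_zero]
    | succ k ih => rw [pow_succ, ih, ← tv_add, Nat.cast_succ]
  have hz : Commute (negSG _) x := (Subgroup.mem_center_iff.1 negSG_mem_center x).symm
  have hne : ∀ {W : Type _} [AddCommGroup W] [Module F W] (w : W), -w = w → w = 0 := fun w h =>
    (smul_eq_zero.1 (show (2 : F) • w = 0 by rw [two_smul]; nth_rw 1 [← h]; simp)).resolve_left h2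
  have hz2 : orderOf (negSG (B.restrict (B.orthogonal (Submodule.span F {u, v})))) = 2 := by
    refine orderOf_eq_prime (by rw [pow_two, negSG_mul_self]) fun h => ?_
    have : Nontrivial (B.orthogonal (Submodule.span F {u, v})) :=
      Module.nontrivial_of_finrank_pos (R := F) (by omega)
    obtain ⟨w, hw⟩ := exists_ne (0 : B.orthogonal (Submodule.span F {u, v}))
    exact hw (hne w (by rw [← negSG_apply (B := B.restrict _), h]; rfl))
  have hy := hz.orderOf_mul_eq_mul_orderOf_of_coprime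
    (by rw [hz2, hx]; exact Nat.coprime_two_left.2 hr2)
  rw [hz2, hx] at hy
  refine ⟨(spSum hA hc (t, negSG _ * x) :), Nat.dvd_antisymm (orderOf_dvd_of_pow_eq_one ?_) ?_⟩
  · rw [← QuotientGroup.mk_pow, ← map_pow, Prod.pow_mk, ht, mul_right_comm, pow_mul, ← hy,
      pow_orderOf_eq_one, one_pow, Nat.cast_mul, CharP.cast_eq_zero F p, mul_zero, tv_zero]
    exact congrArg _ (map_one _)
  · have h3 := pow_orderOf_eq_one ((spSum hA hc (t, negSG _ * x) :) : SG B ⧸ Subgroup.center (SG B))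
    generalize orderOf ((spSum hA hc (t, negSG _ * x) :) : SG B ⧸ Subgroup.center (SG B)) = k at h3
    rw [← QuotientGroup.mk_pow, QuotientGroup.eq_one_iff, ← map_pow, Prod.pow_mk, ht,
      SpSimple.mem_center_iff hB hA] at h3
    rcases h3 with h3 | h3
    · obtain ⟨h4, h5⟩ := Prod.ext_iff.1 ((map_eq_one_iff _ (spSum_injective hA hc)).1 h3)
      have h6 := congrArg (fun g => (g.1 ⟨v, hv2⟩ : V)) h4
      simp [tv_apply, SG.one_apply, hu, hv', CharP.cast_eq_zero_iff F p] at h6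
      rw [mul_right_comm]
      refine Nat.Coprime.mul_dvd_of_dvd_of_dvd (Nat.Coprime.mul_left (Nat.coprime_two_left.2 hp2)
        ((Nat.coprime_primes hr hp).2 hpr.symm)) (hy ▸ orderOf_dvd_of_pow_eq_one h5) h6
    · have h4 := spSum_left hA hc (tv (alt_restrict hA _) ⟨u, hu'⟩ k, (negSG _ * x) ^ k) ⟨u, hu'⟩
      rw [h3] at h4
      exact (hu (hne u (by simpa [tv_apply, negSG_apply, hA.self_eq_zero] using h4))).elim

end Sp

theorem exists_order {F : Type*} [Field F] [Fintype F] (hodd : Odd (Fintype.card F)) {n : ℕ}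
    (hn : 3 ≤ n) : ∃ k, (∃ g : PSp n F, orderOf g = k) ∧
      ∀ g : POmega F (quadFormOdd n F), orderOf g ≠ k := by
  obtain ⟨m, rfl⟩ : ∃ m, n = m + 2 := ⟨n - 2, by omega⟩
  have h2 := two_ne_zero_of_odd hodd
  obtain ⟨r, hr, hr2, h1, H, Hp, Hm⟩ := exists_prime (m := m) hodd Fintype.one_lt_card (by omega)
  rw [← Nat.card_eq_fintype_card] at h1 H Hp Hm
  obtain ⟨p, hp⟩ := CharP.exists F
  have hp' := CharP.char_is_prime F p
  have hpr : p ≠ r := by
    rintro rfl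
    obtain ⟨k, -, hk⟩ := FiniteField.card F p
    refine hr.one_lt.ne' (Nat.dvd_one.1 ((Nat.dvd_add_right h1).1 ?_))
    rw [Nat.sub_add_cancel (Nat.one_le_pow _ _ Nat.card_pos), Nat.card_eq_fintype_card, hk]
    exact dvd_pow (dvd_pow_self _ k.ne_zero) (by omega)
  refine ⟨2 * p * r, ?_, fun g hg => ?_⟩
  · obtain ⟨g, hg⟩ := exists_sp SpMat.sB_alt (SpMat.sB_nondeg (ι := Fin (m + 2))) h2 hp' hr hr2 hpr
      (by rw [SpMat.finrank_eq, Fintype.card_fin]; ring) h1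
    exact ⟨(quotCenterEquiv (SpMat.spEquiv _ F)).symm g, by rw [MulEquiv.orderOf_eq, hg]⟩
  have hQ := nd_oddQ (m + 2) h2
  have hd : finrank F (Unit ⊕ (Fin (m + 2) ⊕ Fin (m + 2)) → F) = 2 * (m + 1) + 3 := by
    simp; ring
  obtain ⟨g', hg'⟩ := QuotientGroup.mk_surjective (pomegaEquiv (oddQ (m + 2) F) g)
  have h3 : orderOf g'.1 = 2 * p * r := by
    rw [Subgroup.orderOf_coe, ← hg, ← (pomegaEquiv (oddQ (m + 2) F)).orderOf_eq, ← hg']
    refine (orderOf_injective (QuotientGroup.mk' _) ((injective_iff_map_eq_one _).2 fun a ha => ?_)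
      g').symm
    rcases (hQ.mem_center_commutator_iff (good_of_two_ne_zero h2) (by omega) a).1
      ((QuotientGroup.eq_one_iff a).1 ha) with h | h
    · exact Subtype.ext h
    · obtain ⟨c, hc⟩ := ((hQ.negOne_mem_iff h2 (Pi.basisFun F _)).1 (h ▸ a.2)).1
      omega
  have h4 := pow_orderOf_eq_one g'.1
  have h5 {k : ℕ} (h : 0 < k) (h' : k < 2 * p * r) : g'.1 ^ k ≠ 1 :=
    pow_ne_one_of_lt_orderOf h.ne' (h3 ▸ h')
  have := hp'.one_lt
  have := hr.one_lt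
  rw [h3] at h4
  refine h5 (k := 2 * r) (by omega) (by nlinarith) (main h2 hp' (CharP.cast_eq_zero F p) hr ?_ hr2
    hQ (by omega) hd H Hp Hm (z := g'.1 ^ (p * r)) (x := g'.1 ^ (2 * p)) ?_ ?_ ?_
    (h5 (by positivity) (by nlinarith)) (h5 (by omega) (by nlinarith)) (pow_mem g'.2 _)
    (Commute.pow_pow_self _ _ _) (Commute.pow_pow_self _ _ _) (Commute.pow_pow_self _ _ _))
  · rw [Ne, CharP.cast_eq_zero_iff F p, Nat.prime_dvd_prime_iff_eq hp' hr]; exact hpr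
  all_goals exact (pow_mul _ _ _).symm.trans ((congrArg _ (by ring)).trans h4)

end Cfsg.Agent.Classical.BC
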