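import Mathlib

/-!
# Weights of commuting families in cross characteristic
-/

set_option autoImplicit false
set_option backward.isDefEq.respectTransparency false

namespace Cfsg.Agent.Classical.LSK

open Module

universe w

theorem exists_wt' {G K V I : Type*} [Group G] [Field K] [IsAlgClosed K] [AddCommGroup V]
    [Module K V] [FiniteDimensional K V] (ρ : G →* End K V) {x : I → G}
    (hx : ∀ i j, Commute (x i) (x j)) {p : ℕ} (hp : (p : K) ≠ 0) (hxp : ∀ i, x i ^ p = 1) {i₀ : I}
    (hi : ρ (x i₀) ≠ 1) : ∃ β : I → K, β i₀ ≠ 1 ∧ (∀ i j k, x i * x j = x k → β i * β j = β k) ∧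
      (∀ i, x i = 1 → β i = 1) ∧ ∀ {J : Type w} [Fintype J] (γ : J → I → K), Function.Injective γ →
      (∀ j, ∃ g, ∃ π : I → I, (∀ i, x i * g = g * x (π i)) ∧ γ j = β ∘ π) →
        Fintype.card J ≤ finrank K V := by
  let W : (I → K) → Submodule K V := fun β => ⨅ i, End.eigenspace (ρ (x i)) (β i)
  have mem : ∀ {β v}, v ∈ W β ↔ ∀ i, ρ (x i) v = β i • v := by
    simp [W, Submodule.mem_iInf, End.mem_eigenspace_iff]
  have ss : ∀ i, End.IsSemisimple (ρ (x i)) := fun i => by
    refine End.isSemisimple_of_squarefree_aeval_eq_zero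
      (p := Polynomial.X ^ p - Polynomial.C 1) ?_ ?_
    · exact (Polynomial.separable_X_pow_sub_C (1 : K) hp one_ne_zero).squarefree
    · rw [map_sub, map_pow, Polynomial.aeval_X, ← map_pow, hxp]; simp
  have e : W = fun β => ⨅ i, End.maxGenEigenspace (ρ (x i)) (β i) := funext fun β => by
    simp only [W]
    congr 1; ext i : 1
    exact ((ss i).isFinitelySemisimple.maxGenEigenspace_eq_eigenspace _).symm
  have ind : iSupIndep W := e ▸ End.independent_iInf_maxGenEigenspace_of_forall_mapsTo _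
    fun i j φ => End.mapsTo_maxGenEigenspace_of_comm ((hx j i).map ρ) φ
  have top : ⨆ β, W β = ⊤ :=
    e ▸ End.iSup_iInf_maxGenEigenspace_eq_top_of_iSup_maxGenEigenspace_eq_top_of_commute _
      (fun i j _ => (hx i j).map ρ) fun i => End.iSup_maxGenEigenspace_eq_top _
  obtain ⟨β, h1, h2⟩ : ∃ β, β i₀ ≠ 1 ∧ W β ≠ ⊥ := by
    by_contra H
    push Not at H
    apply hi
    ext v
    have hv : v ∈ ⨆ β, W β := top ▸ Submodule.mem_top
    have : ⨆ β, W β ≤ End.eigenspace (ρ (x i₀)) 1 := by
      refine iSup_le fun β => ?_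
      by_cases h : β i₀ = 1
      · exact h ▸ iInf_le _ i₀
      · rw [H β h]; exact bot_le
    simpa [End.mem_eigenspace_iff] using this hv
  obtain ⟨v, hv, hv0⟩ := (Submodule.ne_bot_iff _).1 h2
  refine ⟨β, h1, fun i j k h => ?_, fun i h => ?_, fun γ hγ h => ?_⟩
  · have := mem.1 hv k
    rw [← h, map_mul, End.mul_apply, mem.1 hv, map_smul, mem.1 hv, smul_smul] at this
    exact mul_comm (β i) _ ▸ smul_left_injective K hv0 this
  · have := mem.1 hv i
    rw [h, map_one] at this
    exact smul_left_injective K hv0 (by simpa using this.symm)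
  · choose g π h3 h4 using h
    refine ((ind.comp hγ).linearIndependent _ (v := fun j => ρ (g j) v) (fun j => mem.2 fun i => ?_)
      fun j h0 => hv0 ?_).fintype_card_le_finrank
    · rw [← End.mul_apply, ← map_mul, h3, map_mul, End.mul_apply, mem.1 hv, map_smul, h4]; rfl
    · simpa [← End.mul_apply, ← map_mul] using congrArg (ρ (g j)⁻¹) h0

theorem exists_wt {G K I : Type*} [Group G] [Field K] {d : ℕ} (ρ : G →* GL (Fin d) K) {x : I → G}
    (hx : ∀ i j, Commute (x i) (x j)) {p : ℕ} (hp : (p : K) ≠ 0) (hxp : ∀ i, x i ^ p = 1) {i₀ : I}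
    (hi : ρ (x i₀) ≠ 1) : ∃ β : I → AlgebraicClosure K, β i₀ ≠ 1 ∧
      (∀ i j k, x i * x j = x k → β i * β j = β k) ∧
      (∀ i, x i = 1 → β i = 1) ∧ ∀ {J : Type w} [Fintype J] (γ : J → I → AlgebraicClosure K),
      Function.Injective γ → (∀ j, ∃ g, ∃ π : I → I, (∀ i, x i * g = g * x (π i)) ∧ γ j = β ∘ π) →
        Fintype.card J ≤ d := by
  let L := AlgebraicClosure K
  let τ : G →* End L (Fin d → L) := ((Matrix.toLinAlgEquiv' : Matrix _ _ L ≃ₐ[L] _).toMonoidHom.comp
    (algebraMap K L).mapMatrix.toMonoidHom).comp ((Units.coeHom _).comp ρ)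
  have := exists_wt' τ hx (p := p) (by
    rw [← map_natCast (algebraMap K L)]; exact (map_ne_zero _).2 hp) hxp (i₀ := i₀) fun h => hi (by
      have h1 : (algebraMap K L).mapMatrix (ρ (x i₀)).1 = 1 :=
        (Matrix.toLinAlgEquiv' : Matrix _ _ L ≃ₐ[L] _).injective (by rw [map_one]; exact h)
      refine Units.ext (Matrix.map_injective (algebraMap K L).injective ?_)
      exact h1.trans (map_one (algebraMap K L).mapMatrix).symm)
  simpa using this

theorem cast_ne_zero {F K : Type*} [Field F] [Finite F] [Field K] (hK : ringChar K ≠ ringChar F) :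
    ((ringChar F : ℕ) : K) ≠ 0 := fun h => by
  have hp : (ringChar F).Prime := CharP.char_is_prime F _
  rcases (Nat.dvd_prime hp).1 ((ringChar.spec K _).1 h) with h | h
  · exact CharP.ringChar_ne_one h
  · exact hK h

end Cfsg.Agent.Classical.LSK
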