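import Mathlib
import Cfsg.Agent.Classical.LSL2
import Cfsg.Agent.Char.Indicator
import Cfsg.Agent.Char.Constit

/-!
# From degrees of complex representations to indices of subgroups
-/

set_option autoImplicit false
set_option backward.isDefEq.respectTransparency false

namespace Cfsg.Agent.Classical.LS

open Cfsg Module Matrix Cfsg.Agent.Classical.Transv Cfsg.Agent.Classical.SLBasic

section general
variable {G : Type*} [Group G] [Fintype G]

theorem exists_rep_add {η : G → ℂ} (h : IsCharacter G η) (h0 : η ≠ 0)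
    (h1 : classInner η (fun _ => 1) = 0) :
    ∃ (d : ℕ) (ρ : Representation ℂ G (Fin d → ℂ)) (θ : G → ℂ), ρ.IsIrreducible ∧ (∃ g, ρ g ≠ 1) ∧
      IsCharacter G θ ∧ classInner θ (fun _ => 1) = 0 ∧ η = ρ.character + θ := by
  obtain ⟨χ, hχ, hne⟩ := Char.Constit.exists_constituent h h0
  obtain ⟨θ, hθ, e⟩ := Char.Constit.exists_add_of_inner_ne_zero h hχ hne
  have h2 : χ ≠ fun _ => 1 := by rintro rfl; exact hne h1
  have h3 := Char.classInner_isIrr_ne hχ Char.isIrr_one h2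
  obtain ⟨d, ρ, hρ, rfl⟩ := hχ
  refine ⟨d, ρ, θ, hρ, ?_, hθ, by rwa [e, Char.classInner_add_left, h3, zero_add] at h1, e⟩
  by_contra H
  push Not at H
  have := Char.nontrivial_of_isIrreducible ρ
  have h4 : ρ.character = (finrank ℂ (Fin d → ℂ) : ℂ) • fun _ => 1 := funext fun g => by
    simp [Representation.character, H]
  rw [h4, Char.classInner_smul_left, Char.classInner_one_one, mul_one, Nat.cast_eq_zero] at h3
  exact finrank_pos.ne' h3

/-- The permutation character on the cosets of a proper subgroup of small index. -/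
theorem exists_rep_index {b : ℕ} (hb : ∀ (d : ℕ) (ρ : Representation ℂ G (Fin d → ℂ)),
    ρ.IsIrreducible → (∃ g, ρ g ≠ 1) → b ≤ d) {H : Subgroup G} (hH : H ≠ ⊤) :
    b < H.index ∧ (H.index ≤ 2 * b → ∃ (d : ℕ) (ρ : Representation ℂ G (Fin d → ℂ)),
      d + 1 = H.index ∧ ρ.IsIrreducible ∧ (∃ g, ρ g ≠ 1) ∧
      ∀ g, ρ.character g + 1 = Nat.card (MulAction.fixedBy (G ⧸ H) g)) := by
  have h1 : ((Nat.card (MulAction.fixedBy (G ⧸ H) (1 : G)) : ℂ)) = H.index := by
    rw [MulAction.fixedBy_one_eq_univ, Nat.card_congr (Equiv.Set.univ _)]; rfl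
  obtain ⟨d, ρ, θ, hρ, hn, hθ, hθ1, e⟩ := exists_rep_add (Char.isChar_perm_sub_one (G := G) (G ⧸ H))
    (fun h => by
      have := congrFun h 1
      simp only [h1, Pi.zero_apply, sub_eq_zero, Nat.cast_eq_one, Subgroup.index_eq_one] at this
      exact hH this)
    (by
      change classInner ((fun g : G => (Nat.card (MulAction.fixedBy (G ⧸ H) g) : ℂ)) - fun _ => 1) _ = 0
      rw [Char.classInner_sub_left, Char.classInner_perm_one, Char.card_orbits_of_pretransitive,
        Char.classInner_one_one]; simp)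
  obtain ⟨c, hc⟩ := Char.isChar_degree hθ
  have h2 := congrFun e 1
  simp only [h1, Pi.add_apply, hc, ρ.char_one, finrank_fintype_fun_eq_card, Fintype.card_fin] at h2
  have h3 : H.index = d + c + 1 := by exact_mod_cast sub_eq_iff_eq_add.1 h2
  have h4 := hb d ρ hρ hn
  refine ⟨by omega, fun h5 => ?_⟩
  obtain rfl : θ = 0 := by
    by_contra h0
    obtain ⟨d', ρ', θ', hρ', hn', hθ', -, e'⟩ := exists_rep_add hθ h0 hθ1
    obtain ⟨c', hc'⟩ := Char.isChar_degree hθ'
    have h6 := congrFun e' 1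
    simp only [Pi.add_apply, hc, hc', ρ'.char_one, finrank_fintype_fun_eq_card,
      Fintype.card_fin] at h6
    have h7 : c = d' + c' := by exact_mod_cast h6
    have := hb d' ρ' hρ' hn'
    omega
  have : c = 0 := by rw [Pi.zero_apply] at hc; exact_mod_cast hc.symm
  exact ⟨d, ρ, by omega, hρ, hn, fun g => by
    have := congrFun e g
    simp only [add_zero] at this
    rw [← this, sub_add_cancel]⟩

end general

variable {F : Type*} [Field F] {ι : Type} [Fintype ι] [DecidableEq ι]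

/-- Involutions of `SL_3` in characteristic two are transvections. -/
theorem eq_tv_of_sq (hι : Fintype.card ι = 3) (h2 : (2 : F) = 0) {g : SpecialLinearGroup ι F}
    (hg : g * g = 1) (h1 : g ≠ 1) : ∃ u φ h, u ≠ 0 ∧ φ ≠ 0 ∧ g = tv u φ h := by
  have e : g.1 * g.1 = 1 := congrArg Subtype.val hg
  have hN : (g.1 - 1) * (g.1 - 1) = 0 := by
    have : (g.1 - 1) * (g.1 - 1) = (2 : F) • (1 - g.1) := by
      rw [sub_mul, mul_sub, mul_sub, e]; simp only [mul_one, one_mul]; module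
    rw [this, h2, zero_smul]
  have hr := rank_add_rank_le_card_of_mul_eq_zero hN
  have hne : g.1 - 1 ≠ 0 := fun h => h1 (Subtype.ext (sub_eq_zero.1 h))
  have hr0 : (g.1 - 1).rank ≠ 0 := fun h => hne (by
    rw [Matrix.rank, Submodule.finrank_eq_zero, LinearMap.range_eq_bot] at h
    exact Matrix.toLin'.injective (by rw [map_zero]; exact h))
  obtain ⟨u, φ, hu, hφ, h⟩ := GLGeom.exists_vecMulVec_of_rank_eq_one (M := g.1 - 1) (by omega)
  rw [h, vecMulVec_mul_vecMulVec, vecMulVec_eq_zero] at hN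
  refine ⟨u, φ, ?_, hu, hφ, Subtype.ext (by rw [tv_coe, ← h, add_sub_cancel])⟩
  simpa [hφ] using hN.resolve_left hu

variable [Fintype F]

theorem sl_small {k : ℕ} (hk : 2 ≤ k) {H : Subgroup (SpecialLinearGroup (Fin (k + 1)) F)}
    (hH : H ≠ ⊤) (hi : H.index ≤ 2 * (Fintype.card F ^ k - 1)) {T : ℕ}
    (hT : (Fintype.card F - 1) * T = (Fintype.card F ^ (k + 1) - 1) * (Fintype.card F ^ k - 1)) :
    H.index - 1 ∣ T * Fintype.card F ^ k ∧ ∀ (u φ : Fin (k + 1) → F) h, u ≠ 0 → φ ≠ 0 →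
      Nat.card (MulAction.fixedBy (_ ⧸ H) (tv u φ h)) + Fintype.card F ^ k = H.index := by
  classical
  have hk' : 2 ≤ Fintype.card (Fin k) := by simpa using hk
  let e : Fin k ⊕ Unit ≃ Fin (k + 1) := Fintype.equivOfCardEq (by simp)
  obtain ⟨d, ρ, hd, hρ, hn, hχ⟩ := (exists_rep_index (b := Fintype.card F ^ k - 1)
    (fun d ρ _ hn => by
      obtain ⟨m, hm⟩ := exists_mult (ρ := ρ) e hk'
      have h1 := finrank_step hm
      have h2 := Nat.mul_le_mul_left (Fintype.card F ^ k - 1) (mult_pos hm hk' hn)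
      simp only [finrank_fintype_fun_eq_card, Fintype.card_fin] at h1
      omega) hH).2 hi
  obtain ⟨m, hm⟩ := exists_mult (ρ := ρ) e hk'
  have h1 := finrank_step hm
  have h2 := mult_pos hm hk' hn
  simp only [finrank_fintype_fun_eq_card, Fintype.card_fin] at h1
  obtain rfl : m = 1 := by
    by_contra h
    have := Nat.mul_le_mul_left (Fintype.card F ^ k - 1) (show 2 ≤ m by omega)
    omega
  have h3 := dvd_of_irr hm hk' hρ rfl (T := T) (by simpa using hT)
  simp only [finrank_fintype_fun_eq_card, Fintype.card_fin] at h3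
  refine ⟨by rwa [← hd, Nat.add_sub_cancel], fun u φ h hu hφ => ?_⟩
  have : Nontrivial (Fin k) := Fintype.one_lt_card_iff_nontrivial.1 hk'
  obtain ⟨x, hx⟩ := exists_ne (0 : Fin k → F)
  obtain ⟨s, hs⟩ := isConj_tv (by simp; omega) (ex_ne_zero e hx) (ε0_ne_zero e) hu hφ
    (ε0_dot_ex e x) h
  have h4 := hχ (tv u φ h)
  rw [← hs, ρ.char_conj, Representation.character, ← xq, trace_xq hm hx, xq, hs] at h4
  have h5 : Nat.card (MulAction.fixedBy (_ ⧸ H) (tv u φ h)) = finrank ℂ (low ρ e).toSubmodule := by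
    have : (finrank ℂ (low ρ e).toSubmodule : ℂ) = Nat.card (MulAction.fixedBy (_ ⧸ H) (tv u φ h)) := by
      rw [← h4]; simp
    exact_mod_cast this.symm
  have : 1 ≤ Fintype.card F ^ k := Nat.one_le_pow _ _ Fintype.card_pos
  omega

omit [Fintype F] in
theorem fix_of_card {G : Type*} [Group G] [Finite G] {H : Subgroup G} {g : G} {a : ℕ}
    (h : Nat.card (MulAction.fixedBy (G ⧸ H) g) + a = a) (w : G ⧸ H) : g • w ≠ w := fun e => by
  have : Nonempty (MulAction.fixedBy (G ⧸ H) g) := ⟨⟨w, e⟩⟩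
  have := Nat.card_pos (α := MulAction.fixedBy (G ⧸ H) g)
  omega

theorem not_free_three (h2 : (2 : F) = 0) {H : Subgroup (SpecialLinearGroup (Fin 3) F)}
    (hH : 2 ∣ Nat.card H) 
    (hf : ∀ (u φ : Fin 3 → F) h, u ≠ 0 → φ ≠ 0 → ∀ w : _ ⧸ H, tv u φ h • w ≠ w) : False := by
  classical
  obtain ⟨t, ht⟩ := exists_prime_orderOf_dvd_card' 2 hH
  have h1 : (t : SpecialLinearGroup (Fin 3) F) * t = 1 := by
    rw [← Subgroup.coe_mul, ← pow_two, ← ht, pow_orderOf_eq_one]; rfl
  obtain ⟨u, φ, h, hu, hφ, e⟩ := eq_tv_of_sq (by simp) h2 h1 fun h => by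
    rw [show t = 1 from Subtype.ext h] at ht; simp at ht
  refine hf u φ h hu hφ ((1 : SpecialLinearGroup (Fin 3) F) : _ ⧸ H) ?_
  rw [← e, MulAction.Quotient.smul_coe, eq_comm, QuotientGroup.eq]
  simp

omit [Fintype F] in
theorem exists_dot_span {s : Set (ι → F)} {y : ι → F} (h : y ∉ Submodule.span F s) :
    ∃ χ : ι → F, (∀ x ∈ s, χ ⬝ᵥ x = 0) ∧ χ ⬝ᵥ y = 1 := by
  obtain ⟨f, hf, hf0⟩ := Submodule.exists_dual_map_eq_bot_of_notMem h inferInstance
  have h0 : ∀ x ∈ s, f x = 0 := fun x hx => by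
    have : f x ∈ (Submodule.span F s).map f := Submodule.mem_map_of_mem (Submodule.subset_span hx)
    rwa [hf0] at this
  have e : ∀ z, (fun i => f (Pi.single i 1)) ⬝ᵥ z = f z := fun z => by
    conv_rhs => rw [pi_eq_sum_univ' z]
    simp [dotProduct, mul_comm]
  exact ⟨(f y)⁻¹ • fun i => f (Pi.single i 1), fun x hx => by simp [e, h0 x hx], by simp [e, hf]⟩

theorem not_free_four (h2 : (2 : F) ≠ 0) {Ω : Type*} [MulAction (SpecialLinearGroup (Fin 4) F) Ω]
    (hΩ : Nat.card Ω = Fintype.card F ^ 3)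
    (hf : ∀ (u φ : Fin 4 → F) h, u ≠ 0 → φ ≠ 0 → ∀ w : Ω, tv u φ h • w ≠ w) : False := by
  have hpos : 0 < Nat.card Ω := hΩ ▸ pow_pos Fintype.card_pos _
  obtain ⟨⟨w⟩, _⟩ := Nat.card_pos_iff.1 hpos
  let φ0 : Fin 4 → F := ![1, 0, 0, 0]
  let u0 : Fin 4 → F := ![0, 0, 0, 1]
  have hφ0 : φ0 ≠ 0 := fun h => by simpa [φ0] using congrFun h 0
  have hu0 : u0 ≠ 0 := fun h => by simpa [u0] using congrFun h 3
  have htr : ∀ w' : Ω, ∃ u : Kr φ0, ax φ0 u • w' = w := fun w' => by
    refine (Function.Injective.bijective_of_nat_card_le (f := fun u : Kr φ0 => ax φ0 u • w')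
      (fun u v huv => ?_) (by rw [card_Kr hφ0, hΩ]; simp)).2 w
    by_contra hne
    refine hf (u - v).1 φ0 (u - v).2 (fun h => hne (sub_eq_zero.1 (Subtype.ext h))) hφ0
      (ax φ0 v • w') ?_
    change ax φ0 (u - v) • _ = _
    rw [smul_smul, ← ax_add, sub_add_cancel]; exact huv
  let y : (Fin 4 → F) → F → F → SpecialLinearGroup (Fin 4) F := fun u a b =>
    ⟨!![1, 0, 0, 0; u 1, 1, 0, 0; u 2, 0, 1, 0; u 3, a, b, 1], by simp [det_succ_row_zero, Fin.sum_univ_succ]⟩
  have hz : ∀ c : F, y ![0, 0, 0, c] 0 0 • w = w → c = 0 := fun c h => by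
    by_contra hc
    refine hf (c • u0) φ0 (by simp [u0, φ0]) (smul_ne_zero hc hu0) hφ0 w ?_
    convert h
    ext i j
    fin_cases i <;> fin_cases j <;> simp [tv_coe, y, u0, φ0, vecMulVec_apply]
  have hax : ∀ u : Kr φ0, ax φ0 u = y u 0 0 := fun u => by
    have : u.1 0 = 0 := by simpa [φ0, vecHead] using (show φ0 ⬝ᵥ u.1 = 0 from u.2)
    ext i j
    fin_cases i <;> fin_cases j <;> simp [ax, tv_coe, y, φ0, vecMulVec_apply, this]
  have hy : ∀ (u : Kr φ0) (v : Fin 4 → F) a b, ax φ0 u * y v a b = y (u + v) a b := fun u v a b => by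
    rw [hax]
    ext i j
    fin_cases i <;> fin_cases j <;> simp [y, Matrix.mul_apply, Fin.sum_univ_succ]
  have hc : ∀ u v a b a' b', y u a b • w = w → y v a' b' • w = w →
      a * v 1 + b * v 2 = a' * u 1 + b' * u 2 := fun u v a b a' b' h h' => by
    rw [← sub_eq_zero]
    apply hz
    have e : y ![0, 0, 0, a * v 1 + b * v 2 - (a' * u 1 + b' * u 2)] 0 0 * (y v a' b' * y u a b) =
        y u a b * y v a' b' := by
      ext i j
      fin_cases i <;> fin_cases j <;> simp [y, Matrix.mul_apply, Fin.sum_univ_succ] <;> ring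
    rw [eq_mul_inv_of_mul_eq e, mul_smul, mul_smul, inv_smul_eq_iff.2 (by rw [mul_smul, h, h']),
      h', h]
  obtain ⟨u, hu⟩ := htr (y 0 1 0 • w)
  rw [smul_smul, hy, add_zero] at hu
  have key : ∀ g : SpecialLinearGroup (Fin 4) F, ∀ v a b, g * y u 1 0 = y v a b * g →
      v 1 = a * u.1 1 + b * u.1 2 := fun g v a b e => by
    obtain ⟨x, hx⟩ := htr (g • w)
    have hx0 : ∀ x : Kr φ0, ∃ c, y (x + v) a b * (ax φ0 x)⁻¹ = y ![0, v 1, v 2, c] a b := fun x => by
      refine ⟨v 3 - (a * x.1 1 + b * x.1 2), mul_inv_eq_of_eq_mul ?_⟩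
      rw [hax]
      ext i j
      fin_cases i <;> fin_cases j <;> simp [y, Matrix.mul_apply, Fin.sum_univ_succ] <;> ring
    obtain ⟨c, hc'⟩ := hx0 x
    have := hc _ _ _ _ _ _ hu (show y ![0, v 1, v 2, c] a b • w = w by
      rw [← hc', ← hy, mul_smul, mul_smul, inv_smul_eq_iff.2 hx.symm, smul_smul (y v a b), ← e,
        mul_smul, hu, hx])
    simpa using this
  have k1 := key ⟨!![1, 0, 0, 0; 0, 1, 1, 0; 0, 0, 1, 0; 0, 0, 0, 1],
    by simp [det_succ_row_zero, Fin.sum_univ_succ]⟩ ![0, u.1 1 + u.1 2, u.1 2, u.1 3] 1 (-1) (by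
      ext i j
      fin_cases i <;> fin_cases j <;> simp [y, Matrix.mul_apply, Fin.sum_univ_succ])
  have k2 := key ⟨!![1, 0, 0, 0; 0, 0, 1, 0; 0, -1, 2, 0; 0, 0, 0, 1],
    by simp [det_succ_row_zero, Fin.sum_univ_succ]⟩
      ![0, u.1 2, 2 * u.1 2 - u.1 1, u.1 3] 2 (-1) (by
      ext i j
      fin_cases i <;> fin_cases j <;> simp [y, Matrix.mul_apply, Fin.sum_univ_succ] <;> ring)
  have h3 : u.1 2 = 0 := by
    have : 2 * u.1 2 = 0 := by simp at k1; linear_combination k1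
    simpa [h2] using this
  have h4 : u.1 1 = 0 := by
    have : 2 * u.1 1 = 0 := by simp [h3] at k2; simp [k2]
    simpa [h2] using this
  refine hf u0 ![u.1 3, 1, 0, 0] (by simp [u0]) hu0 (fun h => by simpa using congrFun h 1) w ?_
  convert hu
  ext i j
  fin_cases i <;> fin_cases j <;> simp [tv_coe, y, u0, vecMulVec_apply, h3, h4]

end Cfsg.Agent.Classical.LS
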