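import Mathlib
import Cfsg.Agent.Classical.SpSum
import Cfsg.Agent.Classical.GLGeom

/-! The Siegel parabolic subgroup, the Borel subgroup and the monomial subgroup of `Sp`. -/

set_option autoImplicit false
set_option backward.isDefEq.respectTransparency false

namespace Cfsg.Agent.Classical.SpSum

open Module Matrix Cfsg.Agent.Classical.SpWitt Cfsg.Agent.Classical.SpMat
  Cfsg.Agent.Classical.GLGeom Sum

variable {F : Type*} [Field F] {m : ℕ}

theorem mem_stabilizing (p : Fin m ⊕ Fin m → Prop) {S : Set (Fin m ⊕ Fin m → F)}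
    (hS : ∀ v, v ∈ S ↔ ∀ i, ¬ p i → v i = 0) (A : symplecticGroup (Fin m) F) :
    A ∈ stabilizing (spToMat m F) S ↔ ∀ i j, ¬ p i → p j → A.1 i j = 0 := by
  classical
  obtain rfl : S = {v | ∀ i, ¬ p i → v i = 0} := Set.ext hS
  exact mem_parab p (g := ⟨A.1, (A⁻¹).1, coe_mul_inv A, coe_inv_mul A⟩)

/-- The Levi subgroup of the Siegel parabolic subgroup. -/
def lev : GL (Fin m) F →* symplecticGroup (Fin m) F where
  toFun X := ⟨fromBlocks X.1 0 0 (X⁻¹).1ᵀ, by
    simp [SymplecticGroup.mem_iff, J, fromBlocks_transpose, fromBlocks_multiply, ← transpose_mul]⟩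
  map_one' := Subtype.ext (by simp)
  map_mul' X Y := Subtype.ext (by simp [fromBlocks_multiply])

variable (m F) in
/-- The Siegel parabolic subgroup. -/
abbrev sieg : Subgroup (symplecticGroup (Fin m) F) :=
  stabilizing (spToMat m F) {v : Fin m ⊕ Fin m → F | ∀ i : Fin m, v (inr i) = 0}

theorem mem_sieg {A : symplecticGroup (Fin m) F} :
    A ∈ sieg F m ↔ ∀ i j, A.1 (inr i) (inl j) = 0 := by
  rw [mem_stabilizing (fun i => i.isLeft) (by simp)]; simp

/-- The projection of the Siegel parabolic subgroup to `GL`. -/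
def siegHom : sieg F m →* GL (Fin m) F := MonoidHom.toHomUnits
  { toFun := fun A => A.1.1.toBlocks₁₁
    map_one' := by ext; simp [toBlocks₁₁, one_apply]
    map_mul' := fun A B => by ext; simp [toBlocks₁₁, mul_apply, mem_sieg.1 B.2] }

theorem siegHom_surjective : Function.Surjective (siegHom (m := m) (F := F)) := fun X =>
  ⟨⟨lev X, mem_sieg.2 fun _ _ => rfl⟩, Units.ext rfl⟩

theorem card_ker_siegHom [Finite F] :
    Nat.card (siegHom (m := m) (F := F)).ker = Nat.card F ^ (m * (m + 1) / 2) := by
  have h1 := card_comap_surj _ (siegHom_surjective (m := m) (F := F)) ⊤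
  let W : Submodule F (Fin m ⊕ Fin m → F) := LinearMap.ker (LinearMap.funLeft F F inr)
  have hW : ∀ u ∈ W, ∀ v ∈ W, sB (Fin m) F u v = 0 := fun u hu v hv => by
    have : ∀ i, u (inr i) = 0 := congrFun hu
    have : ∀ i, v (inr i) = 0 := congrFun hv
    simp [sB_eq_sum, *]
  have hd : finrank F W = m := by
    have := (LinearMap.funLeft F F (inr : Fin m → Fin m ⊕ Fin m)).finrank_range_add_finrank_ker
    rw [LinearMap.range_eq_top.2 (LinearMap.funLeft_surjective_of_injective F F _ inr_injective)]
      at this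
    simpa using this
  have e : sieg F m = stabilizing (spToMat m F) (W : Set (Fin m ⊕ Fin m → F)) :=
    congrArg _ (Set.ext fun v => funext_iff.symm)
  rw [Subgroup.comap_top, Subgroup.card_top, Subgroup.card_top,
    Nat.card_congr (MulEquiv.subgroupCongr e).toEquiv,
    Nat.card_congr (stabEquiv W).toEquiv, card_stab sB_alt sB_nondeg hW, card_linearEquiv hd,
    card_fixSub_of_isotropic sB_nondeg sB_alt 0 m W (fun u hu v hv => hW v hv u hu) hd
      (by rw [finrank_eq, Fintype.card_fin]; rfl), ← card_GL' (Fintype.card_fin m)] at h1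
  simpa using (Nat.eq_of_mul_eq_mul_right Nat.card_pos h1).symm

end Cfsg.Agent.Classical.SpSum
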